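import Mathlib
import Cfsg.Agent.Lib.Helper40.NilpCount

/-!
# Team project SPU (S2316): the number of unipotent elements of `Sp_{2m}(q)` is `q^(2m²)`

Interface file: definitions of the counted sets and the package propositions.
Conventions: column vectors; `K` is the Gram matrix of the form; `g` is an isometry iff
`gᵀ * K * g = K`.  Index types live in `Type`.
-/

set_option autoImplicit false

namespace Cfsg.Agent.Lib.Helper19.SPU

open Matrix

universe u

section defs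

variable {F : Type u} [Field F] {n : Type} [Fintype n] [DecidableEq n]

/-- A symplectic form: alternating and invertible Gram matrix. -/
def IsSymp (K : Matrix n n F) : Prop := Kᵀ = -K ∧ (∀ i, K i i = 0) ∧ IsUnit K

/-- `g` is an isometry of the form `K`. -/
def Isom (K g : Matrix n n F) : Prop := gᵀ * K * g = K

/-- The affine family `𝒜(K)`. -/
def AffA (K X : Matrix n n F) : Prop := Xᵀ * K + K * X + K = 0

/-- number of isometries -/
noncomputable def cI (K : Matrix n n F) : ℕ := Nat.card {g : Matrix n n F // Isom K g}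

/-- number of unipotent isometries -/
noncomputable def cU (K : Matrix n n F) : ℕ :=
  Nat.card {g : Matrix n n F // Isom K g ∧ IsNilpotent (g - 1)}

/-- number of isometries `g` with `g - 1` invertible -/
noncomputable def cD (K : Matrix n n F) : ℕ :=
  Nat.card {g : Matrix n n F // Isom K g ∧ IsUnit (g - 1)}

/-- number of isometries `g` with stable rank of `g - 1` equal to `r` -/
noncomputable def cS1 (K : Matrix n n F) (r : ℕ) : ℕ :=
  Nat.card {g : Matrix n n F // Isom K g ∧ ((g - 1) ^ Fintype.card n).rank = r}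

/-- size of the affine family -/
noncomputable def cA (K : Matrix n n F) : ℕ := Nat.card {X : Matrix n n F // AffA K X}

/-- invertible members of the affine family -/
noncomputable def cDA (K : Matrix n n F) : ℕ :=
  Nat.card {X : Matrix n n F // AffA K X ∧ IsUnit X}

/-- members `X` of the affine family with `X² + X` nilpotent -/
noncomputable def cT (K : Matrix n n F) : ℕ :=
  Nat.card {X : Matrix n n F // AffA K X ∧ IsNilpotent (X * X + X)}

/-- members `X` of the affine family with stable rank of `X² + X` equal to `r` -/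
noncomputable def cS2 (K : Matrix n n F) (r : ℕ) : ℕ :=
  Nat.card {X : Matrix n n F // AffA K X ∧ ((X * X + X) ^ Fintype.card n).rank = r}

end defs

/-! ## Packages -/

/-- [STD] every symplectic form is congruent to the standard one. -/
def PkgStd : Prop := ∀ (F : Type u) [Field F] (n : Type) [Fintype n] [DecidableEq n]
  (K : Matrix n n F), IsSymp K →
  ∃ (m : ℕ) (P : Matrix n (Fin m ⊕ Fin m) F) (Q : Matrix (Fin m ⊕ Fin m) n F),
    Fintype.card n = 2 * m ∧ P * Q = 1 ∧ Q * P = 1 ∧ Pᵀ * K * P = Matrix.J (Fin m) F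

/-- [CONG] two symplectic forms of the same size are congruent. -/
def PkgCong : Prop := ∀ (F : Type u) [Field F] (n n' : Type) [Fintype n] [DecidableEq n]
  [Fintype n'] [DecidableEq n'] (K : Matrix n n F) (K' : Matrix n' n' F),
  IsSymp K → IsSymp K' → Fintype.card n = Fintype.card n' →
  ∃ (P : Matrix n n' F) (Q : Matrix n' n F), P * Q = 1 ∧ Q * P = 1 ∧ Pᵀ * K * P = K'

/-- [EVEN] -/
def PkgEven : Prop := ∀ (F : Type u) [Field F] (n : Type) [Fintype n] [DecidableEq n]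
  (K : Matrix n n F), IsSymp K → Even (Fintype.card n)

/-- [TR1] transport of the group-side counts. -/
def PkgTr1 : Prop := ∀ (F : Type u) [Field F] [Fintype F] (n n' : Type) [Fintype n]
  [DecidableEq n] [Fintype n'] [DecidableEq n'] (K : Matrix n n F) (K' : Matrix n' n' F),
  IsSymp K → IsSymp K' → Fintype.card n = Fintype.card n' →
  cI K = cI K' ∧ cU K = cU K' ∧ cD K = cD K' ∧ ∀ r, cS1 K r = cS1 K' r

/-- [TR2] transport of the affine-side counts. -/
def PkgTr2 : Prop := ∀ (F : Type u) [Field F] [Fintype F] (n n' : Type) [Fintype n]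
  [DecidableEq n] [Fintype n'] [DecidableEq n'] (K : Matrix n n F) (K' : Matrix n' n' F),
  IsSymp K → IsSymp K' → Fintype.card n = Fintype.card n' →
  cA K = cA K' ∧ cDA K = cDA K' ∧ cT K = cT K' ∧ ∀ r, cS2 K r = cS2 K' r

/-- [DEC1] orthogonal Fitting decomposition of an isometry `g` w.r.t. `g - 1`. -/
def PkgDec1 : Prop := ∀ (F : Type u) [Field F] (α β : Type) [Fintype α] [DecidableEq α]
  [Fintype β] [DecidableEq β] (K g : Matrix (α ⊕ β) (α ⊕ β) F), IsSymp K → Isom K g →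
  ((g - 1) ^ (Fintype.card α + Fintype.card β)).rank = Fintype.card β →
  ∃ (P : GL (α ⊕ β) F) (K₁ : Matrix α α F) (K₂ : Matrix β β F) (g₁ : Matrix α α F)
    (g₂ : Matrix β β F), IsSymp K₁ ∧ IsSymp K₂ ∧
    P.valᵀ * K * P.val = Matrix.fromBlocks K₁ 0 0 K₂ ∧
    g * P.val = P.val * Matrix.fromBlocks g₁ 0 0 g₂ ∧ Isom K₁ g₁ ∧ Isom K₂ g₂ ∧
    IsNilpotent (g₁ - 1) ∧ IsUnit (g₂ - 1)

/-- [DEC1N] normalised version of [DEC1] (= [DEC1] + [CONG]). -/
def PkgDec1N : Prop := ∀ (F : Type u) [Field F] (α β : Type) [Fintype α] [DecidableEq α]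
  [Fintype β] [DecidableEq β] (K₁ : Matrix α α F) (K₂ : Matrix β β F)
  (g : Matrix (α ⊕ β) (α ⊕ β) F), IsSymp K₁ → IsSymp K₂ →
  Isom (Matrix.fromBlocks K₁ 0 0 K₂) g →
  ((g - 1) ^ (Fintype.card α + Fintype.card β)).rank = Fintype.card β →
  ∃ (P : GL (α ⊕ β) F) (g₁ : Matrix α α F) (g₂ : Matrix β β F),
    Isom (Matrix.fromBlocks K₁ 0 0 K₂) P.val ∧
    g * P.val = P.val * Matrix.fromBlocks g₁ 0 0 g₂ ∧ Isom K₁ g₁ ∧ Isom K₂ g₂ ∧
    IsNilpotent (g₁ - 1) ∧ IsUnit (g₂ - 1)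

/-- [DEC2] orthogonal Fitting decomposition of `X ∈ 𝒜(K)` w.r.t. `X² + X`. -/
def PkgDec2 : Prop := ∀ (F : Type u) [Field F] (α β : Type) [Fintype α] [DecidableEq α]
  [Fintype β] [DecidableEq β] (K X : Matrix (α ⊕ β) (α ⊕ β) F), IsSymp K → AffA K X →
  ((X * X + X) ^ (Fintype.card α + Fintype.card β)).rank = Fintype.card β →
  ∃ (P : GL (α ⊕ β) F) (K₁ : Matrix α α F) (K₂ : Matrix β β F) (X₁ : Matrix α α F)
    (X₂ : Matrix β β F), IsSymp K₁ ∧ IsSymp K₂ ∧
    P.valᵀ * K * P.val = Matrix.fromBlocks K₁ 0 0 K₂ ∧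
    X * P.val = P.val * Matrix.fromBlocks X₁ 0 0 X₂ ∧ AffA K₁ X₁ ∧ AffA K₂ X₂ ∧
    IsNilpotent (X₁ * X₁ + X₁) ∧ IsUnit X₂

/-- [DEC2N] normalised version of [DEC2] (= [DEC2] + [CONG]). -/
def PkgDec2N : Prop := ∀ (F : Type u) [Field F] (α β : Type) [Fintype α] [DecidableEq α]
  [Fintype β] [DecidableEq β] (K₁ : Matrix α α F) (K₂ : Matrix β β F)
  (X : Matrix (α ⊕ β) (α ⊕ β) F), IsSymp K₁ → IsSymp K₂ →
  AffA (Matrix.fromBlocks K₁ 0 0 K₂) X →
  ((X * X + X) ^ (Fintype.card α + Fintype.card β)).rank = Fintype.card β →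
  ∃ (P : GL (α ⊕ β) F) (X₁ : Matrix α α F) (X₂ : Matrix β β F),
    Isom (Matrix.fromBlocks K₁ 0 0 K₂) P.val ∧
    X * P.val = P.val * Matrix.fromBlocks X₁ 0 0 X₂ ∧ AffA K₁ X₁ ∧ AffA K₂ X₂ ∧
    IsNilpotent (X₁ * X₁ + X₁) ∧ IsUnit X₂

/-- [FIT1] the double count for the stratum of isometries. -/
def PkgFit1 : Prop := ∀ (F : Type u) [Field F] [Fintype F] (α β : Type) [Fintype α]
  [DecidableEq α] [Fintype β] [DecidableEq β] (K₁ : Matrix α α F) (K₂ : Matrix β β F),
  IsSymp K₁ → IsSymp K₂ →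
  cS1 (Matrix.fromBlocks K₁ 0 0 K₂) (Fintype.card β) * (cI K₁ * cI K₂) =
    cI (Matrix.fromBlocks K₁ 0 0 K₂) * (cU K₁ * cD K₂)

/-- [FIT2] the double count for the stratum of the affine family. -/
def PkgFit2 : Prop := ∀ (F : Type u) [Field F] [Fintype F] (α β : Type) [Fintype α]
  [DecidableEq α] [Fintype β] [DecidableEq β] (K₁ : Matrix α α F) (K₂ : Matrix β β F),
  IsSymp K₁ → IsSymp K₂ →
  cS2 (Matrix.fromBlocks K₁ 0 0 K₂) (Fintype.card β) * (cI K₁ * cI K₂) =
    cI (Matrix.fromBlocks K₁ 0 0 K₂) * (cT K₁ * cDA K₂)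

/-- [SUM1] the strata (even stable ranks only) exhaust the isometry group. -/
def PkgSum1 : Prop := ∀ (F : Type u) [Field F] [Fintype F] (m : ℕ),
  ∑ l ∈ Finset.range (m + 1), cS1 (Matrix.J (Fin m) F) (2 * l) = cI (Matrix.J (Fin m) F)

/-- [SUM2] the strata (even stable ranks only) exhaust the affine family. -/
def PkgSum2 : Prop := ∀ (F : Type u) [Field F] [Fintype F] (m : ℕ),
  ∑ l ∈ Finset.range (m + 1), cS2 (Matrix.J (Fin m) F) (2 * l) = cA (Matrix.J (Fin m) F)

/-- [LAGRANK] -/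
def PkgLagRank : Prop := ∀ (F : Type u) [Field F] (n : Type) [Fintype n] [DecidableEq n]
  (K X : Matrix n n F), IsSymp K → AffA K X → IsNilpotent (X * X + X) →
  2 * (X ^ Fintype.card n).rank = Fintype.card n

/-- [LAGDEC] Lagrangian normal form of `X ∈ 𝒜(J)` with `X² + X` nilpotent. -/
def PkgLagDec : Prop := ∀ (F : Type u) [Field F] (k : ℕ)
  (X : Matrix (Fin k ⊕ Fin k) (Fin k ⊕ Fin k) F), AffA (Matrix.J (Fin k) F) X →
  IsNilpotent (X * X + X) →
  ∃ (P : GL (Fin k ⊕ Fin k) F) (N : Matrix (Fin k) (Fin k) F),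
    Isom (Matrix.J (Fin k) F) P.val ∧ IsNilpotent N ∧
    X * P.val = P.val * Matrix.fromBlocks N 0 0 (-1 - Nᵀ)

/-- [LAG] the count of the "nilpotent" part of the affine family. -/
def PkgLag : Prop := ∀ (F : Type u) [Field F] [Fintype F] (k : ℕ),
  cT (Matrix.J (Fin k) F) * Nat.card (GL (Fin k) F) =
    cI (Matrix.J (Fin k) F) * Helper40.nilCount F k

/-- [BIJ] `g ↦ (g - 1)⁻¹`. -/
def PkgBij : Prop := ∀ (F : Type u) [Field F] (n : Type) [Fintype n] [DecidableEq n]
  (K : Matrix n n F), cD K = cDA K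

/-- [CARDA] the size of the affine family. -/
def PkgCardA : Prop := ∀ (F : Type u) [Field F] [Fintype F] (m : ℕ),
  cA (Matrix.J (Fin m) F) = Fintype.card F ^ (m * (2 * m + 1))

/-- [UNIPJ] bridge to Mathlib's symplectic group: elements of `p`-power order. -/
def PkgUnipJ : Prop := ∀ (F : Type u) [Field F] [Fintype F] (p : ℕ) [Fact p.Prime] [CharP F p]
  (m : ℕ), Nat.card {g : ↥(Matrix.symplecticGroup (Fin m) F) // ∃ k : ℕ, orderOf g = p ^ k} =
    cU (Matrix.J (Fin m) F)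

/-- [CIJ] bridge to Mathlib's symplectic group: the order. -/
def PkgCIJ : Prop := ∀ (F : Type u) [Field F] [Fintype F] (m : ℕ),
  Nat.card ↥(Matrix.symplecticGroup (Fin m) F) = cI (Matrix.J (Fin m) F)

/-- [QID] the `q`-series identity `(1 - x) A(x) S(x) = G(x)`. -/
def PkgQid : Prop := ∀ q : ℕ, 2 ≤ q →
  (1 - PowerSeries.X) *
    PowerSeries.mk (fun m : ℕ => ((q : ℚ) ^ (m * (2 * m + 1)) /
      ((q : ℚ) ^ (m ^ 2) * ∏ i ∈ Finset.range m, ((q : ℚ) ^ (2 * (i + 1)) - 1)))) *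
    PowerSeries.mk (fun k : ℕ => ((q : ℚ) ^ (2 * k ^ 2) /
      ((q : ℚ) ^ (k ^ 2) * ∏ i ∈ Finset.range k, ((q : ℚ) ^ (2 * (i + 1)) - 1)))) =
  PowerSeries.mk (fun k : ℕ => ((q : ℚ) ^ (k * (k - 1)) /
      ∏ i ∈ Finset.range k, ((q : ℚ) ^ k - (q : ℚ) ^ i)))

end Cfsg.Agent.Lib.Helper19.SPU
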