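import Mathlib
import Cfsg.Agent.Lib.Helper19.SPU.Defs
import Cfsg.Agent.Lib.Helper40.SympOrder

/-!
# SPU assembly: from the packages to the Steinberg count for `Sp_{2m}(q)`
-/

set_option autoImplicit false

namespace Cfsg.Agent.Lib.Helper19.SPU

open Matrix

universe u

section basic

variable {F : Type u} [Field F]

theorem isSymp_J (m : ℕ) : IsSymp (Matrix.J (Fin m) F) := by
  refine ⟨?_, ?_, ?_⟩
  · rw [Matrix.J_transpose]
  · intro i
    rcases i with i | i <;> simp [Matrix.J]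
  · exact (Matrix.isUnit_iff_isUnit_det _).mpr (Matrix.isUnit_det_J (Fin m) F)

theorem isSymp_fromBlocks {α β : Type} [Fintype α] [DecidableEq α] [Fintype β] [DecidableEq β]
    {K₁ : Matrix α α F} {K₂ : Matrix β β F} (h₁ : IsSymp K₁) (h₂ : IsSymp K₂) :
    IsSymp (Matrix.fromBlocks K₁ 0 0 K₂) := by
  obtain ⟨a1, b1, c1⟩ := h₁
  obtain ⟨a2, b2, c2⟩ := h₂
  refine ⟨?_, ?_, ?_⟩
  · rw [Matrix.fromBlocks_transpose, a1, a2, Matrix.fromBlocks_neg]
    simp
  · intro i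
    rcases i with i | i
    · simpa using b1 i
    · simpa using b2 i
  · rw [Matrix.isUnit_iff_isUnit_det, Matrix.det_fromBlocks_zero₂₁]
    exact ((Matrix.isUnit_iff_isUnit_det _).mp c1).mul ((Matrix.isUnit_iff_isUnit_det _).mp c2)

theorem cI_pos [Fintype F] {n : Type} [Fintype n] [DecidableEq n] (K : Matrix n n F) :
    0 < cI K := by
  unfold cI
  haveI : Nonempty {g : Matrix n n F // Isom K g} := ⟨⟨1, by simp [Isom]⟩⟩
  exact Nat.card_pos

end basic

section counts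

variable (F : Type u) [Field F] [Fintype F]

/-- R1 at the `ℕ` level. -/
theorem r1_nat (hTr1 : PkgTr1.{u}) (hFit1 : PkgFit1.{u}) (m k l : ℕ) (hm : k + l = m) :
    cS1 (Matrix.J (Fin m) F) (2 * l) * (cI (Matrix.J (Fin k) F) * cI (Matrix.J (Fin l) F)) =
      cI (Matrix.J (Fin m) F) * (cU (Matrix.J (Fin k) F) * cD (Matrix.J (Fin l) F)) := by
  subst hm
  have h := hFit1 F (Fin k ⊕ Fin k) (Fin l ⊕ Fin l) (Matrix.J (Fin k) F) (Matrix.J (Fin l) F)
    (isSymp_J k) (isSymp_J l)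
  have hcard : Fintype.card ((Fin k ⊕ Fin k) ⊕ (Fin l ⊕ Fin l)) =
      Fintype.card (Fin (k + l) ⊕ Fin (k + l)) := by
    simp only [Fintype.card_sum, Fintype.card_fin]; ring
  obtain ⟨e1, -, -, e4⟩ := hTr1 F _ _ _ _ (isSymp_fromBlocks (isSymp_J k) (isSymp_J l))
    (isSymp_J (k + l)) hcard
  rw [e1, e4] at h
  have h2 : Fintype.card (Fin l ⊕ Fin l) = 2 * l := by
    simp only [Fintype.card_sum, Fintype.card_fin]; ring
  rw [h2] at h
  exact h

/-- R2 at the `ℕ` level. -/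
theorem r2_nat (hTr1 : PkgTr1.{u}) (hTr2 : PkgTr2.{u}) (hFit2 : PkgFit2.{u}) (hBij : PkgBij.{u})
    (m k l : ℕ) (hm : k + l = m) :
    cS2 (Matrix.J (Fin m) F) (2 * l) * (cI (Matrix.J (Fin k) F) * cI (Matrix.J (Fin l) F)) =
      cI (Matrix.J (Fin m) F) * (cT (Matrix.J (Fin k) F) * cD (Matrix.J (Fin l) F)) := by
  subst hm
  have h := hFit2 F (Fin k ⊕ Fin k) (Fin l ⊕ Fin l) (Matrix.J (Fin k) F) (Matrix.J (Fin l) F)
    (isSymp_J k) (isSymp_J l)
  have hcard : Fintype.card ((Fin k ⊕ Fin k) ⊕ (Fin l ⊕ Fin l)) =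
      Fintype.card (Fin (k + l) ⊕ Fin (k + l)) := by
    simp only [Fintype.card_sum, Fintype.card_fin]; ring
  obtain ⟨e1, -, -, -⟩ := hTr1 F _ _ _ _ (isSymp_fromBlocks (isSymp_J k) (isSymp_J l))
    (isSymp_J (k + l)) hcard
  obtain ⟨-, -, -, e4⟩ := hTr2 F _ _ _ _ (isSymp_fromBlocks (isSymp_J k) (isSymp_J l))
    (isSymp_J (k + l)) hcard
  rw [e1, e4, ← hBij F _ (Matrix.J (Fin l) F)] at h
  have h2 : Fintype.card (Fin l ⊕ Fin l) = 2 * l := by
    simp only [Fintype.card_sum, Fintype.card_fin]; ring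
  rw [h2] at h
  exact h

/-- normalised counts -/
noncomputable def iQ (m : ℕ) : ℚ := (cI (Matrix.J (Fin m) F) : ℚ)
noncomputable def uQ (m : ℕ) : ℚ := (cU (Matrix.J (Fin m) F) : ℚ) / iQ F m
noncomputable def dQ (m : ℕ) : ℚ := (cD (Matrix.J (Fin m) F) : ℚ) / iQ F m
noncomputable def tQ (m : ℕ) : ℚ := (cT (Matrix.J (Fin m) F) : ℚ) / iQ F m

theorem iQ_pos (m : ℕ) : 0 < iQ F m := by
  unfold iQ
  exact_mod_cast cI_pos (Matrix.J (Fin m) F)

/-- R1 over `ℚ`. -/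
theorem r1_rat (hTr1 : PkgTr1.{u}) (hFit1 : PkgFit1.{u}) (hSum1 : PkgSum1.{u}) (m : ℕ) :
    ∑ l ∈ Finset.range (m + 1), dQ F l * uQ F (m - l) = 1 := by
  have hs := hSum1 F m
  have hs' : ∑ l ∈ Finset.range (m + 1), ((cS1 (Matrix.J (Fin m) F) (2 * l) : ℕ) : ℚ) = iQ F m := by
    unfold iQ
    rw [← hs]; push_cast; rfl
  have key : ∀ l ∈ Finset.range (m + 1), dQ F l * uQ F (m - l) =
      ((cS1 (Matrix.J (Fin m) F) (2 * l) : ℕ) : ℚ) / iQ F m := by
    intro l hl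
    rw [Finset.mem_range] at hl
    have h := r1_nat F hTr1 hFit1 m (m - l) l (by omega)
    have h' : ((cS1 (Matrix.J (Fin m) F) (2 * l) : ℕ) : ℚ) * (iQ F (m - l) * iQ F l) =
        iQ F m * ((cU (Matrix.J (Fin (m - l)) F) : ℚ) * (cD (Matrix.J (Fin l) F) : ℚ)) := by
      unfold iQ; exact_mod_cast h
    have p1 := iQ_pos F m
    have p2 := iQ_pos F l
    have p3 := iQ_pos F (m - l)
    unfold dQ uQ
    field_simp
    linear_combination (-1 : ℚ) * h'
  rw [Finset.sum_congr rfl key, ← Finset.sum_div, hs']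
  exact div_self (iQ_pos F m).ne'

/-- R2 over `ℚ`. -/
theorem r2_rat (hTr1 : PkgTr1.{u}) (hTr2 : PkgTr2.{u}) (hFit2 : PkgFit2.{u}) (hBij : PkgBij.{u})
    (hSum2 : PkgSum2.{u}) (hCardA : PkgCardA.{u}) (m : ℕ) :
    ∑ l ∈ Finset.range (m + 1), dQ F l * tQ F (m - l) =
      (Fintype.card F : ℚ) ^ (m * (2 * m + 1)) / iQ F m := by
  have hs := hSum2 F m
  rw [hCardA F m] at hs
  have hs' : ∑ l ∈ Finset.range (m + 1), ((cS2 (Matrix.J (Fin m) F) (2 * l) : ℕ) : ℚ) =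
      (Fintype.card F : ℚ) ^ (m * (2 * m + 1)) := by
    rw [← Nat.cast_pow, ← hs]; push_cast; rfl
  have key : ∀ l ∈ Finset.range (m + 1), dQ F l * tQ F (m - l) =
      ((cS2 (Matrix.J (Fin m) F) (2 * l) : ℕ) : ℚ) / iQ F m := by
    intro l hl
    rw [Finset.mem_range] at hl
    have h := r2_nat F hTr1 hTr2 hFit2 hBij m (m - l) l (by omega)
    have h' : ((cS2 (Matrix.J (Fin m) F) (2 * l) : ℕ) : ℚ) * (iQ F (m - l) * iQ F l) =
        iQ F m * ((cT (Matrix.J (Fin (m - l)) F) : ℚ) * (cD (Matrix.J (Fin l) F) : ℚ)) := by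
      unfold iQ; exact_mod_cast h
    have p1 := iQ_pos F m
    have p2 := iQ_pos F l
    have p3 := iQ_pos F (m - l)
    unfold dQ tQ
    field_simp
    linear_combination (-1 : ℚ) * h'
  rw [Finset.sum_congr rfl key, ← Finset.sum_div, hs']

end counts

section final

variable (F : Type u) [Field F] [Fintype F]

theorem iQ_formula (hCIJ : PkgCIJ.{u}) (m : ℕ) :
    iQ F m = (Fintype.card F : ℚ) ^ (m ^ 2) *
      ∏ i ∈ Finset.range m, ((Fintype.card F : ℚ) ^ (2 * (i + 1)) - 1) := by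
  unfold iQ
  rw [← hCIJ F m, Helper40.card_symplecticGroup]
  push_cast
  congr 1
  refine Finset.prod_congr rfl fun i _ => ?_
  rw [Nat.cast_sub (Nat.one_le_pow _ _ Fintype.card_pos)]
  push_cast
  rfl

theorem nilCount_eq (k : ℕ) : Helper40.nilCount F k = Fintype.card F ^ (k * (k - 1)) := by
  rcases k with _ | k
  · simp only [Nat.zero_mul, pow_zero]
    unfold Helper40.nilCount
    rw [Nat.card_eq_one_iff_unique]
    refine ⟨⟨fun a b => Subtype.ext (Subsingleton.elim _ _)⟩, ⟨⟨0, 1, by simp⟩⟩⟩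
  · rw [Helper40.nilCount_succ]
    simp

theorem card_GL_rat (k : ℕ) : (Nat.card (GL (Fin k) F) : ℚ) =
    ∏ i ∈ Finset.range k, ((Fintype.card F : ℚ) ^ k - (Fintype.card F : ℚ) ^ i) := by
  rw [Matrix.card_GL_field, Nat.cast_prod,
    ← Fin.prod_univ_eq_prod_range (fun i => (Fintype.card F : ℚ) ^ k - (Fintype.card F : ℚ) ^ i) k]
  refine Finset.prod_congr rfl fun i _ => ?_
  rw [Nat.cast_sub (Nat.pow_le_pow_right Fintype.card_pos i.2.le)]
  push_cast
  rfl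

theorem tQ_formula (hLag : PkgLag.{u}) (k : ℕ) :
    tQ F k = (Fintype.card F : ℚ) ^ (k * (k - 1)) /
      ∏ i ∈ Finset.range k, ((Fintype.card F : ℚ) ^ k - (Fintype.card F : ℚ) ^ i) := by
  have h := hLag F k
  rw [nilCount_eq] at h
  have hGLpos : 0 < (Nat.card (GL (Fin k) F) : ℚ) := by exact_mod_cast Nat.card_pos
  rw [← card_GL_rat]
  have h' : (cT (Matrix.J (Fin k) F) : ℚ) * (Nat.card (GL (Fin k) F) : ℚ) =
      iQ F k * (Fintype.card F : ℚ) ^ (k * (k - 1)) := by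
    unfold iQ; exact_mod_cast h
  unfold tQ
  rw [div_eq_div_iff (iQ_pos F k).ne' hGLpos.ne']
  linear_combination h'

/-- The Steinberg count for `Sp_{2m}(q)` from the packages. -/
theorem spu_main (hTr1 : PkgTr1.{u}) (hTr2 : PkgTr2.{u}) (hFit1 : PkgFit1.{u})
    (hFit2 : PkgFit2.{u}) (hSum1 : PkgSum1.{u}) (hSum2 : PkgSum2.{u}) (hLag : PkgLag.{u})
    (hBij : PkgBij.{u}) (hCardA : PkgCardA.{u}) (hUnipJ : PkgUnipJ.{u}) (hCIJ : PkgCIJ.{u})
    (hQid : PkgQid) (p : ℕ) [Fact p.Prime] [CharP F p] (m : ℕ) :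
    Nat.card {g : ↥(Matrix.symplecticGroup (Fin m) F) // ∃ k : ℕ, orderOf g = p ^ k} =
      Fintype.card F ^ (2 * m ^ 2) := by
  have hq : 2 ≤ Fintype.card F := Fintype.one_lt_card
  have h1 : PowerSeries.mk (dQ F) * PowerSeries.mk (uQ F) = PowerSeries.mk 1 := by
    ext n
    rw [PowerSeries.coeff_mul, PowerSeries.coeff_mk]
    simp only [PowerSeries.coeff_mk]
    rw [Finset.Nat.sum_antidiagonal_eq_sum_range_succ (fun a b => dQ F a * uQ F b)]
    exact r1_rat F hTr1 hFit1 hSum1 n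
  have h2 : PowerSeries.mk (dQ F) * PowerSeries.mk (tQ F) =
      PowerSeries.mk (fun m : ℕ => (Fintype.card F : ℚ) ^ (m * (2 * m + 1)) / iQ F m) := by
    ext n
    rw [PowerSeries.coeff_mul, PowerSeries.coeff_mk]
    simp only [PowerSeries.coeff_mk]
    rw [Finset.Nat.sum_antidiagonal_eq_sum_range_succ (fun a b => dQ F a * tQ F b)]
    exact r2_rat F hTr1 hTr2 hFit2 hBij hSum2 hCardA n
  have h3 : (1 - PowerSeries.X) *
      PowerSeries.mk (fun m : ℕ => (Fintype.card F : ℚ) ^ (m * (2 * m + 1)) / iQ F m) *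
      PowerSeries.mk (fun k : ℕ => (Fintype.card F : ℚ) ^ (2 * k ^ 2) / iQ F k) =
      PowerSeries.mk (tQ F) := by
    have h := hQid (Fintype.card F) hq
    have e1 : (fun m : ℕ => (Fintype.card F : ℚ) ^ (m * (2 * m + 1)) / iQ F m) =
        fun m : ℕ => ((Fintype.card F : ℚ) ^ (m * (2 * m + 1)) /
          ((Fintype.card F : ℚ) ^ (m ^ 2) *
            ∏ i ∈ Finset.range m, ((Fintype.card F : ℚ) ^ (2 * (i + 1)) - 1))) := by
      funext m; rw [iQ_formula F hCIJ]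
    have e2 : (fun k : ℕ => (Fintype.card F : ℚ) ^ (2 * k ^ 2) / iQ F k) =
        fun k : ℕ => ((Fintype.card F : ℚ) ^ (2 * k ^ 2) /
          ((Fintype.card F : ℚ) ^ (k ^ 2) *
            ∏ i ∈ Finset.range k, ((Fintype.card F : ℚ) ^ (2 * (i + 1)) - 1))) := by
      funext k; rw [iQ_formula F hCIJ]
    have e3 : tQ F = fun k : ℕ => ((Fintype.card F : ℚ) ^ (k * (k - 1)) /
        ∏ i ∈ Finset.range k, ((Fintype.card F : ℚ) ^ k - (Fintype.card F : ℚ) ^ i)) := by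
      funext k; rw [tQ_formula F hLag]
    rw [e1, e2, e3]
    exact h
  have h4 : (1 - PowerSeries.X) * PowerSeries.mk (1 : ℕ → ℚ) = 1 := by
    rw [mul_comm]; exact PowerSeries.mk_one_mul_one_sub_eq_one ℚ
  set Dp := PowerSeries.mk (dQ F) with hDp
  set Up := PowerSeries.mk (uQ F) with hUp
  set Tp := PowerSeries.mk (tQ F) with hTp
  set Ap := PowerSeries.mk (fun m : ℕ => (Fintype.card F : ℚ) ^ (m * (2 * m + 1)) / iQ F m)
    with hAp
  set Sp := PowerSeries.mk (fun k : ℕ => (Fintype.card F : ℚ) ^ (2 * k ^ 2) / iQ F k) with hSp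
  have hA0 : Ap ≠ 0 := by
    intro h0
    have := congrArg (PowerSeries.coeff 0) h0
    rw [hAp, PowerSeries.coeff_mk] at this
    simp only [Nat.zero_mul, pow_zero, map_zero] at this
    have hpos := iQ_pos F 0
    rw [one_div, inv_eq_zero] at this
    exact hpos.ne' this
  have h5 : Ap * ((1 - PowerSeries.X) * Dp * Sp) = Ap * 1 := by
    calc Ap * ((1 - PowerSeries.X) * Dp * Sp) = Dp * ((1 - PowerSeries.X) * Ap * Sp) := by ring
      _ = Ap * 1 := by rw [h3, h2, mul_one]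
  have h6 : (1 - PowerSeries.X) * Dp * Sp = 1 := mul_left_cancel₀ hA0 h5
  have h7 : (1 - PowerSeries.X) * Dp * Up = 1 := by
    rw [mul_assoc, h1, h4]
  have h8 : (1 - PowerSeries.X) * Dp ≠ 0 := by
    intro h0
    rw [h0, zero_mul] at h6
    exact zero_ne_one h6
  have h9 : Sp = Up := mul_left_cancel₀ h8 (h6.trans h7.symm)
  have h10 := congrArg (PowerSeries.coeff m) h9
  rw [hSp, hUp, PowerSeries.coeff_mk, PowerSeries.coeff_mk] at h10
  unfold uQ at h10
  have hpos := iQ_pos F m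
  have h11 : (cU (Matrix.J (Fin m) F) : ℚ) = (Fintype.card F : ℚ) ^ (2 * m ^ 2) := by
    field_simp at h10
    exact h10.symm
  rw [hUnipJ F p m]
  exact_mod_cast h11

end final

end Cfsg.Agent.Lib.Helper19.SPU
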