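import Mathlib
import Cfsg.Agent.Lib.Helper19.SPU.Defs
import Cfsg.Agent.Lib.Helper40.Fitting

/-!
# SPU package [LAG] (backup seat): `cT (J k) * |GL_k| = cI (J k) * nilCount k`
-/

set_option autoImplicit false

namespace Cfsg.Agent.Lib.Helper19.SPU

open Matrix

universe u

variable {F : Type u} [Field F]

/-- the Lagrangian normal form -/
def lagD {k : ℕ} (N : Matrix (Fin k) (Fin k) F) : Matrix (Fin k ⊕ Fin k) (Fin k ⊕ Fin k) F :=
  Matrix.fromBlocks N 0 0 (-1 - Nᵀ)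

theorem affA_lagD {k : ℕ} (N : Matrix (Fin k) (Fin k) F) : AffA (Matrix.J (Fin k) F) (lagD N) := by
  unfold AffA lagD Matrix.J
  rw [Matrix.fromBlocks_transpose, Matrix.fromBlocks_multiply, Matrix.fromBlocks_multiply,
    Matrix.fromBlocks_add, Matrix.fromBlocks_add, ← Matrix.fromBlocks_zero, Matrix.fromBlocks_inj]
  refine ⟨?_, ?_, ?_, ?_⟩
  · simp
  · simp only [Matrix.transpose_zero, Matrix.zero_mul, Matrix.mul_zero, Matrix.mul_neg,
      Matrix.mul_one, Matrix.neg_mul, Matrix.one_mul, add_zero, zero_add]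
    abel
  · simp only [Matrix.transpose_zero, Matrix.zero_mul, Matrix.mul_zero, Matrix.mul_one,
      Matrix.one_mul, add_zero, zero_add, Matrix.transpose_sub, Matrix.transpose_neg,
      Matrix.transpose_one, Matrix.transpose_transpose]
    abel
  · simp

theorem lagD_inj {k : ℕ} {N N' : Matrix (Fin k) (Fin k) F} (h : lagD N = lagD N') : N = N' := by
  unfold lagD at h
  rw [Matrix.fromBlocks_inj] at h
  exact h.1

theorem isom_mul' {n : Type} [Fintype n] [DecidableEq n] {K P Q : Matrix n n F}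
    (hP : Isom K P) (hQ : Isom K Q) : Isom K (P * Q) := by
  unfold Isom at *
  calc (P * Q)ᵀ * K * (P * Q) = Qᵀ * (Pᵀ * K * P) * Q := by
        simp only [Matrix.transpose_mul, Matrix.mul_assoc]
    _ = K := by rw [hP, hQ]

theorem isom_isUnit {k : ℕ} {g : Matrix (Fin k ⊕ Fin k) (Fin k ⊕ Fin k) F}
    (h : Isom (Matrix.J (Fin k) F) g) : IsUnit g := by
  rw [Matrix.isUnit_iff_isUnit_det]
  apply Matrix.isUnit_det_of_left_inverse (B := -Matrix.J (Fin k) F * gᵀ * Matrix.J (Fin k) F)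
  unfold Isom at h
  rw [Matrix.mul_assoc, Matrix.mul_assoc, ← Matrix.mul_assoc gᵀ, h, Matrix.neg_mul,
    Matrix.J_squared, neg_neg]

/-- an isometry of `J` in `GL`: the inverse is an isometry too -/
theorem isom_inv {k : ℕ} (P : GL (Fin k ⊕ Fin k) F) (h : Isom (Matrix.J (Fin k) F) P.val) :
    Isom (Matrix.J (Fin k) F) (P⁻¹).val := by
  unfold Isom at *
  have h1 : (P⁻¹).valᵀ * (P.valᵀ * Matrix.J (Fin k) F * P.val) * (P⁻¹).val =
      (P⁻¹).valᵀ * Matrix.J (Fin k) F * (P⁻¹).val := by rw [h]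
  rw [← h1]
  have h2 : (P⁻¹).valᵀ * P.valᵀ = 1 := by
    rw [← Matrix.transpose_mul, Units.mul_inv, Matrix.transpose_one]
  calc (P⁻¹).valᵀ * (P.valᵀ * Matrix.J (Fin k) F * P.val) * (P⁻¹).val
      = ((P⁻¹).valᵀ * P.valᵀ) * Matrix.J (Fin k) F * (P.val * (P⁻¹).val) := by
        simp only [Matrix.mul_assoc]
    _ = Matrix.J (Fin k) F := by rw [h2, Units.mul_inv, Matrix.one_mul, Matrix.mul_one]

/-- the isometries as a subtype of `GL` -/
theorem card_isomGL {k : ℕ} :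
    Nat.card {P : GL (Fin k ⊕ Fin k) F // Isom (Matrix.J (Fin k) F) P.val} =
      cI (Matrix.J (Fin k) F) := by
  unfold cI
  refine Nat.card_congr ⟨fun P => ⟨P.1.val, P.2⟩, fun g => ⟨(isom_isUnit g.2).unit, ?_⟩, ?_, ?_⟩
  · rw [IsUnit.unit_spec]; exact g.2
  · intro P
    apply Subtype.ext
    apply Units.ext
    simp
  · intro g
    apply Subtype.ext
    simp

/-- `Q ↦ (Q⁻¹)ᵀ` in `GL`. -/
def tinv {k : ℕ} (Q : GL (Fin k) F) : GL (Fin k) F :=
  ⟨(Q⁻¹).valᵀ, Q.valᵀ, by rw [← Matrix.transpose_mul, Units.mul_inv, Matrix.transpose_one],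
    by rw [← Matrix.transpose_mul, Units.inv_mul, Matrix.transpose_one]⟩

theorem isom_diag {k : ℕ} (Q : GL (Fin k) F) :
    Isom (Matrix.J (Fin k) F) (Matrix.fromBlocks Q.val 0 0 (Q⁻¹).valᵀ) := by
  unfold Isom Matrix.J
  rw [Matrix.fromBlocks_transpose, Matrix.fromBlocks_multiply, Matrix.fromBlocks_multiply,
    Matrix.fromBlocks_inj]
  have h1 : Q.valᵀ * (Q⁻¹).valᵀ = 1 := by
    rw [← Matrix.transpose_mul, Units.inv_mul, Matrix.transpose_one]
  refine ⟨?_, ?_, ?_, ?_⟩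
  · simp
  · simp only [Matrix.transpose_zero, Matrix.zero_mul, Matrix.mul_zero, Matrix.mul_neg,
      Matrix.mul_one, add_zero, zero_add, Matrix.neg_mul, h1]
  · simp only [Matrix.transpose_zero, Matrix.zero_mul, Matrix.mul_zero, Matrix.mul_one,
      add_zero, zero_add, Matrix.transpose_transpose, Units.inv_mul]
  · simp

theorem lagD_conj {k : ℕ} (N : Matrix (Fin k) (Fin k) F) (Q : GL (Fin k) F) :
    lagD N * Matrix.fromBlocks Q.val 0 0 (Q⁻¹).valᵀ =
      Matrix.fromBlocks Q.val 0 0 (Q⁻¹).valᵀ * lagD ((Q⁻¹).val * N * Q.val) := by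
  unfold lagD
  rw [Matrix.fromBlocks_multiply, Matrix.fromBlocks_multiply, Matrix.fromBlocks_inj]
  have h1 : (Q⁻¹).valᵀ * Q.valᵀ = 1 := by
    rw [← Matrix.transpose_mul, Units.mul_inv, Matrix.transpose_one]
  refine ⟨?_, ?_, ?_, ?_⟩
  · simp only [Matrix.zero_mul, add_zero]
    rw [← Matrix.mul_assoc, ← Matrix.mul_assoc, Units.mul_inv, Matrix.one_mul]
  · simp
  · simp
  · simp only [Matrix.zero_mul, zero_add, Matrix.transpose_mul]
    rw [Matrix.mul_sub, Matrix.sub_mul, Matrix.mul_neg, Matrix.neg_mul, Matrix.mul_one,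
      Matrix.one_mul, ← Matrix.mul_assoc, ← Matrix.mul_assoc, h1, Matrix.one_mul]

theorem lagD_sq_nilp {k : ℕ} {N : Matrix (Fin k) (Fin k) F} (hN : IsNilpotent N) :
    IsNilpotent (lagD N * lagD N + lagD N) := by
  have h1 : lagD N * lagD N + lagD N =
      Matrix.fromBlocks (N * (N + 1)) 0 0 (Nᵀ * (Nᵀ + 1)) := by
    unfold lagD
    rw [Matrix.fromBlocks_multiply, Matrix.fromBlocks_add, Matrix.fromBlocks_inj]
    refine ⟨?_, ?_, ?_, ?_⟩
    · simp only [Matrix.zero_mul, add_zero]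
      rw [Matrix.mul_add, Matrix.mul_one]
    · simp
    · simp
    · simp only [Matrix.zero_mul, zero_add]
      noncomm_ring
  have c1 : Commute N (N + 1) := (Commute.refl N).add_right (Commute.one_right N)
  have c2 : Commute Nᵀ (Nᵀ + 1) := (Commute.refl Nᵀ).add_right (Commute.one_right Nᵀ)
  have n1 : IsNilpotent (N * (N + 1)) := c1.isNilpotent_mul_right hN
  have n2 : IsNilpotent (Nᵀ * (Nᵀ + 1)) :=
    c2.isNilpotent_mul_right (Matrix.isNilpotent_transpose_iff.mpr hN)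
  refine ⟨k, ?_⟩
  rw [h1, Helper40.fromBlocks_diag_pow,
    Helper40.isNilpotent_pow_card n1 (by simp), Helper40.isNilpotent_pow_card n2 (by simp)]
  exact Matrix.fromBlocks_zero

theorem lagD_unit {k : ℕ} {N : Matrix (Fin k) (Fin k) F} (hN : IsNilpotent N) :
    IsUnit (-1 - Nᵀ) := by
  have h : (-1 - Nᵀ) = -(1 + Nᵀ) := by abel
  rw [h]
  exact (Matrix.isNilpotent_transpose_iff.mpr hN).isUnit_one_add.neg

/-- transport of membership in the affine family along an isometry -/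
theorem affA_of_conj {k : ℕ} (P : GL (Fin k ⊕ Fin k) F)
    (hP : Isom (Matrix.J (Fin k) F) P.val) {M D : Matrix (Fin k ⊕ Fin k) (Fin k ⊕ Fin k) F}
    (hD : AffA (Matrix.J (Fin k) F) D) (h : M * P.val = P.val * D) :
    AffA (Matrix.J (Fin k) F) M := by
  unfold AffA Isom at *
  have h1 : P.valᵀ * (Mᵀ * Matrix.J (Fin k) F + Matrix.J (Fin k) F * M + Matrix.J (Fin k) F) *
      P.val = 0 := by
    have e1 : P.valᵀ * Mᵀ = Dᵀ * P.valᵀ := by
      rw [← Matrix.transpose_mul, h, Matrix.transpose_mul]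
    calc P.valᵀ * (Mᵀ * Matrix.J (Fin k) F + Matrix.J (Fin k) F * M + Matrix.J (Fin k) F) * P.val
        = (P.valᵀ * Mᵀ) * Matrix.J (Fin k) F * P.val + P.valᵀ * Matrix.J (Fin k) F * (M * P.val)
          + P.valᵀ * Matrix.J (Fin k) F * P.val := by
          simp only [Matrix.mul_add, Matrix.add_mul, Matrix.mul_assoc]
      _ = Dᵀ * (P.valᵀ * Matrix.J (Fin k) F * P.val) +
            (P.valᵀ * Matrix.J (Fin k) F * P.val) * D + P.valᵀ * Matrix.J (Fin k) F * P.val := by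
          rw [e1, h]; simp only [Matrix.mul_assoc]
      _ = 0 := by rw [hP, hD]
  have h2 : (P⁻¹).valᵀ * P.valᵀ = 1 := by
    rw [← Matrix.transpose_mul, Units.mul_inv, Matrix.transpose_one]
  have h3 := congrArg (fun Z => (P⁻¹).valᵀ * Z * (P⁻¹).val) h1
  simp only [Matrix.mul_zero, Matrix.zero_mul] at h3
  rw [← h3]
  simp only [← Matrix.mul_assoc, h2, Matrix.one_mul]
  rw [Matrix.mul_assoc, Units.mul_inv, Matrix.mul_one]

theorem nilp_of_conj {n : Type} [Fintype n] [DecidableEq n] (P : GL n F) {M D : Matrix n n F}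
    (hD : IsNilpotent (D * D + D)) (h : M * P.val = P.val * D) : IsNilpotent (M * M + M) := by
  have h1 : (M * M + M) * P.val = P.val * (D * D + D) := by
    rw [Matrix.add_mul, Matrix.mul_add, Matrix.mul_assoc, h, ← Matrix.mul_assoc, h,
      Matrix.mul_assoc]
  obtain ⟨j, hj⟩ := hD
  refine ⟨j, ?_⟩
  have h2 : (M * M + M) ^ j * P.val = P.val * (D * D + D) ^ j := by
    have : SemiconjBy P.val (D * D + D) (M * M + M) := h1.symm
    exact (this.pow_right j).eq.symm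
  rw [hj, Matrix.mul_zero] at h2
  have h3 := congrArg (fun Z => Z * (P⁻¹).val) h2
  simpa [Matrix.mul_assoc] using h3

/-- [LAG] from [LAGDEC]. -/
theorem pkgLag_of (hLD : PkgLagDec.{u}) : PkgLag.{u} := by
  intro F _ _ k
  classical
  let X : Type u := {x : GL (Fin k ⊕ Fin k) F × Matrix (Fin k ⊕ Fin k) (Fin k ⊕ Fin k) F //
    Isom (Matrix.J (Fin k) F) x.1.val ∧ ∃ N : Matrix (Fin k) (Fin k) F, IsNilpotent N ∧
      x.2 * x.1.val = x.1.val * lagD N}
  -- first parametrisation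
  let f₁ : {P : GL (Fin k ⊕ Fin k) F // Isom (Matrix.J (Fin k) F) P.val} ×
      {N : Matrix (Fin k) (Fin k) F // IsNilpotent N} → X := fun t =>
    ⟨(t.1.1, t.1.1.val * lagD t.2.1 * (t.1.1⁻¹).val), t.1.2, t.2.1, t.2.2, by
      show t.1.1.val * lagD t.2.1 * (t.1.1⁻¹).val * t.1.1.val = t.1.1.val * lagD t.2.1
      rw [Matrix.mul_assoc, Units.inv_mul, Matrix.mul_one]⟩
  have hf₁ : Function.Bijective f₁ := by
    constructor
    · rintro ⟨⟨P, hP⟩, ⟨N, hN⟩⟩ ⟨⟨P', hP'⟩, ⟨N', hN'⟩⟩ hEq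
      have h1 := congrArg (fun x : X => x.1.1) hEq
      have h2 := congrArg (fun x : X => x.1.2) hEq
      simp only [f₁] at h1 h2
      subst h1
      have h3 : lagD N = lagD N' := by
        have := congrArg (fun Z => (P⁻¹).val * Z * P.val) h2
        simpa [Matrix.mul_assoc, ← Matrix.mul_assoc (P⁻¹).val P.val] using this
      have := lagD_inj h3
      subst this
      rfl
    · rintro ⟨⟨P, M⟩, hP, N, hN, h⟩
      refine ⟨(⟨P, hP⟩, ⟨N, hN⟩), ?_⟩
      apply Subtype.ext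
      simp only [f₁]
      refine Prod.ext rfl ?_
      simp only
      simp only at h
      rw [← h, Matrix.mul_assoc, Units.mul_inv, Matrix.mul_one]
  have c1 : Nat.card X = cI (Matrix.J (Fin k) F) * Helper40.nilCount F k := by
    rw [← Nat.card_congr (Equiv.ofBijective f₁ hf₁), Nat.card_prod, card_isomGL]
    rfl
  -- second parametrisation
  have hex : ∀ Y : {Y : Matrix (Fin k ⊕ Fin k) (Fin k ⊕ Fin k) F //
      AffA (Matrix.J (Fin k) F) Y ∧ IsNilpotent (Y * Y + Y)},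
      ∃ (P : GL (Fin k ⊕ Fin k) F) (N : Matrix (Fin k) (Fin k) F),
        Isom (Matrix.J (Fin k) F) P.val ∧ IsNilpotent N ∧ Y.1 * P.val = P.val * lagD N :=
    fun Y => hLD F k Y.1 Y.2.1 Y.2.2
  choose P₀ N₀ hP₀ hN₀ hPD using hex
  have hdiag : ∀ Q : GL (Fin k) F, (Helper40.diagGL Q (tinv Q)).val =
      Matrix.fromBlocks Q.val 0 0 (Q⁻¹).valᵀ := fun Q => rfl
  let f₂ : {Y : Matrix (Fin k ⊕ Fin k) (Fin k ⊕ Fin k) F //
      AffA (Matrix.J (Fin k) F) Y ∧ IsNilpotent (Y * Y + Y)} × GL (Fin k) F → X := fun t =>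
    ⟨(P₀ t.1 * Helper40.diagGL t.2 (tinv t.2), t.1.1), by
        show Isom (Matrix.J (Fin k) F) ((P₀ t.1).val * (Helper40.diagGL t.2 (tinv t.2)).val)
        rw [hdiag]
        exact isom_mul' (hP₀ t.1) (isom_diag t.2),
      (t.2⁻¹).val * N₀ t.1 * t.2.val, by
        obtain ⟨j, hj⟩ := hN₀ t.1
        exact ⟨j, by rw [Units.conj_pow', hj, Matrix.mul_zero, Matrix.zero_mul]⟩, by
        show t.1.1 * ((P₀ t.1).val * (Helper40.diagGL t.2 (tinv t.2)).val) =
          (P₀ t.1).val * (Helper40.diagGL t.2 (tinv t.2)).val *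
            lagD ((t.2⁻¹).val * N₀ t.1 * t.2.val)
        rw [hdiag, ← Matrix.mul_assoc, hPD t.1, Matrix.mul_assoc, lagD_conj]
        exact (Matrix.mul_assoc _ _ _).symm⟩
  have hf₂ : Function.Bijective f₂ := by
    constructor
    · rintro ⟨Y, Q⟩ ⟨Y', Q'⟩ hEq
      have h1 := congrArg (fun x : X => x.1.1) hEq
      have h2 := congrArg (fun x : X => x.1.2) hEq
      simp only [f₂] at h1 h2
      have hY : Y = Y' := Subtype.ext h2
      subst hY
      have h3 : Helper40.diagGL Q (tinv Q) = Helper40.diagGL Q' (tinv Q') :=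
        mul_left_cancel h1
      have h4 := congrArg Units.val h3
      rw [hdiag, hdiag, Matrix.fromBlocks_inj] at h4
      have : Q = Q' := Units.ext h4.1
      subst this
      rfl
    · rintro ⟨⟨P, M⟩, hP, N, hN, h⟩
      simp only at hP h
      have hM : AffA (Matrix.J (Fin k) F) M ∧ IsNilpotent (M * M + M) :=
        ⟨affA_of_conj P hP (affA_lagD N) h, nilp_of_conj P (lagD_sq_nilp hN) h⟩
      obtain ⟨R, hR⟩ : ∃ R : GL (Fin k ⊕ Fin k) F, R = (P₀ ⟨M, hM⟩)⁻¹ * P := ⟨_, rfl⟩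
      have hRc : lagD (N₀ ⟨M, hM⟩) * R.val = R.val * lagD N := by
        have e := hPD ⟨M, hM⟩
        rw [hR]
        show lagD (N₀ ⟨M, hM⟩) * (((P₀ ⟨M, hM⟩)⁻¹).val * P.val) =
          ((P₀ ⟨M, hM⟩)⁻¹).val * P.val * lagD N
        have e2 : lagD (N₀ ⟨M, hM⟩) * ((P₀ ⟨M, hM⟩)⁻¹).val = ((P₀ ⟨M, hM⟩)⁻¹).val * M := by
          have := congrArg (fun Z => ((P₀ ⟨M, hM⟩)⁻¹).val * Z * ((P₀ ⟨M, hM⟩)⁻¹).val) e
          simp only at this
          rw [Matrix.mul_assoc, Matrix.mul_assoc, Units.mul_inv, Matrix.mul_one,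
            ← Matrix.mul_assoc, Units.inv_mul, Matrix.one_mul] at this
          exact this.symm
        rw [← Matrix.mul_assoc, e2, Matrix.mul_assoc, h, Matrix.mul_assoc]
      obtain ⟨Q₁, Q₂, hQ⟩ := Helper40.fitting_rigid (N₀ ⟨M, hM⟩) N _ _ (hN₀ ⟨M, hM⟩) hN
        (lagD_unit (hN₀ ⟨M, hM⟩)) (lagD_unit hN) R hRc
      have hRi : Isom (Matrix.J (Fin k) F) R.val := by
        rw [hR]
        exact isom_mul' (isom_inv _ (hP₀ ⟨M, hM⟩)) hP
      have hQ2 : Q₂.val = (Q₁⁻¹).valᵀ := by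
        unfold Isom at hRi
        rw [hQ] at hRi
        unfold Matrix.J at hRi
        rw [Matrix.fromBlocks_transpose, Matrix.fromBlocks_multiply, Matrix.fromBlocks_multiply,
          Matrix.fromBlocks_inj] at hRi
        have h12 := hRi.2.1
        simp only [Matrix.transpose_zero, Matrix.mul_zero, Matrix.mul_neg,
          Matrix.mul_one, add_zero, zero_add, Matrix.neg_mul, neg_inj] at h12
        have h1 : (Q₁⁻¹).valᵀ * Q₁.valᵀ = 1 := by
          rw [← Matrix.transpose_mul, Units.mul_inv, Matrix.transpose_one]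
        calc Q₂.val = ((Q₁⁻¹).valᵀ * Q₁.valᵀ) * Q₂.val := by rw [h1, Matrix.one_mul]
          _ = (Q₁⁻¹).valᵀ := by rw [Matrix.mul_assoc, h12, Matrix.mul_one]
      refine ⟨(⟨M, hM⟩, Q₁), ?_⟩
      apply Subtype.ext
      simp only [f₂]
      refine Prod.ext ?_ rfl
      simp only
      apply Units.ext
      rw [Units.val_mul, hdiag, ← hQ2, ← hQ, hR, Units.val_mul, ← Matrix.mul_assoc,
        Units.mul_inv, Matrix.one_mul]
  have c2 : Nat.card X = cT (Matrix.J (Fin k) F) * Nat.card (GL (Fin k) F) := by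
    rw [← Nat.card_congr (Equiv.ofBijective f₂ hf₂), Nat.card_prod]
    rfl
  rw [← c2, c1]

end Cfsg.Agent.Lib.Helper19.SPU
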